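import Cfsg.Agent.Lib.H16.CE.S1692.T1

set_option autoImplicit false
set_option maxRecDepth 1000000

namespace Cfsg.Agent.H16.CE.S1692
open Cfsg.Agent.H16.CosetEnum
open Cfsg.Agent.H16.Enum (walk)

noncomputable section

theorem hr56 : rangeAll (allAt LL) 94584 1689 = true := by decide +kernel
theorem hr57 : rangeAll (allAt LL) 96273 1689 = true := by decide +kernel
theorem hr58 : rangeAll (allAt LL) 97962 1689 = true := by decide +kernel
theorem hr59 : rangeAll (allAt LL) 99651 1689 = true := by decide +kernel
theorem hr60 : rangeAll (allAt LL) 101340 1689 = true := by decide +kernel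
theorem hr61 : rangeAll (allAt LL) 103029 1689 = true := by decide +kernel
theorem hr62 : rangeAll (allAt LL) 104718 1689 = true := by decide +kernel
theorem hr63 : rangeAll (allAt LL) 106407 1689 = true := by decide +kernel

end

end Cfsg.Agent.H16.CE.S1692
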