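import Cfsg.Agent.Lib.H16.CE.S1692.T1

set_option autoImplicit false
set_option maxRecDepth 1000000

namespace Cfsg.Agent.H16.CE.S1692
open Cfsg.Agent.H16.CosetEnum
open Cfsg.Agent.H16.Enum (walk)

noncomputable section

theorem hr8 : rangeAll (allAt LL) 13512 1689 = true := by decide +kernel
theorem hr9 : rangeAll (allAt LL) 15201 1689 = true := by decide +kernel
theorem hr10 : rangeAll (allAt LL) 16890 1689 = true := by decide +kernel
theorem hr11 : rangeAll (allAt LL) 18579 1689 = true := by decide +kernel
theorem hr12 : rangeAll (allAt LL) 20268 1689 = true := by decide +kernel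
theorem hr13 : rangeAll (allAt LL) 21957 1689 = true := by decide +kernel
theorem hr14 : rangeAll (allAt LL) 23646 1689 = true := by decide +kernel
theorem hr15 : rangeAll (allAt LL) 25335 1689 = true := by decide +kernel

end

end Cfsg.Agent.H16.CE.S1692
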