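import Cfsg.Agent.Lib.H16.CE.S1692.T1

set_option autoImplicit false
set_option maxRecDepth 1000000

namespace Cfsg.Agent.H16.CE.S1692
open Cfsg.Agent.H16.CosetEnum
open Cfsg.Agent.H16.Enum (walk)

noncomputable section

theorem hr24 : rangeAll (allAt LL) 40536 1689 = true := by decide +kernel
theorem hr25 : rangeAll (allAt LL) 42225 1689 = true := by decide +kernel
theorem hr26 : rangeAll (allAt LL) 43914 1689 = true := by decide +kernel
theorem hr27 : rangeAll (allAt LL) 45603 1689 = true := by decide +kernel
theorem hr28 : rangeAll (allAt LL) 47292 1689 = true := by decide +kernel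
theorem hr29 : rangeAll (allAt LL) 48981 1689 = true := by decide +kernel
theorem hr30 : rangeAll (allAt LL) 50670 1689 = true := by decide +kernel
theorem hr31 : rangeAll (allAt LL) 52359 1689 = true := by decide +kernel

end

end Cfsg.Agent.H16.CE.S1692
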