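import Cfsg.Agent.Lib.H16.CE.S1692.T1

set_option autoImplicit false
set_option maxRecDepth 1000000

namespace Cfsg.Agent.H16.CE.S1692
open Cfsg.Agent.H16.CosetEnum
open Cfsg.Agent.H16.Enum (walk)

noncomputable section

theorem hr48 : rangeAll (allAt LL) 81072 1689 = true := by decide +kernel
theorem hr49 : rangeAll (allAt LL) 82761 1689 = true := by decide +kernel
theorem hr50 : rangeAll (allAt LL) 84450 1689 = true := by decide +kernel
theorem hr51 : rangeAll (allAt LL) 86139 1689 = true := by decide +kernel
theorem hr52 : rangeAll (allAt LL) 87828 1689 = true := by decide +kernel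
theorem hr53 : rangeAll (allAt LL) 89517 1689 = true := by decide +kernel
theorem hr54 : rangeAll (allAt LL) 91206 1689 = true := by decide +kernel
theorem hr55 : rangeAll (allAt LL) 92895 1689 = true := by decide +kernel

end

end Cfsg.Agent.H16.CE.S1692
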